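import Cfsg.Agent.Lib.Helper8.ReeInst

/-!
# The outer automorphism group of the small Ree groups
-/

set_option autoImplicit false
set_option maxRecDepth 100000

namespace Cfsg.Agent.Lib.Helper8
open Cfsg.Lie Matrix Cfsg.Agent.Lib.Helper23 Cfsg.Agent.Lib.Helper45 Cfsg.Agent.Lib.Helper22

section fieldaut
variable {K : Type*} [Field K] [CharP K 3] {m : ℕ} (hA : AddFact chevG2 K)

theorem reeTh_comm (τ : K →+* K) (x : K) : τ (reeTh K m x) = reeTh K m (τ x) := by
  rw [reeTh_apply, reeTh_apply, map_pow]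

theorem reeW_map (τ : K →+* K) (ra rb r8 r9 r10 r11 : ℕ) {s : K} (hs : τ s = s) (t u v : K) :
    (reeW ra rb r8 r9 r10 r11 s (reeTh K m) t u v).map (fun p => (p.1, τ p.2)) =
      reeW ra rb r8 r9 r10 r11 s (reeTh K m) (τ t) (τ u) (τ v) := by
  simp [reeW, hs, reeTh_comm]

theorem glMap_reeU (τ : K →+* K) (t u v : K) :
    glMap chevG2 τ (reeU hA m t u v) = reeU hA m (τ t) (τ u) (τ v) := by
  unfold reeU
  rw [glMap_W hA hA, reeW_map τ _ _ _ _ _ _ (map_one τ)]

theorem glMap_reeV (τ : K →+* K) (t u v : K) :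
    glMap chevG2 τ (reeV hA m t u v) = reeV hA m (τ t) (τ u) (τ v) := by
  unfold reeV
  rw [glMap_W hA hA, reeW_map τ _ _ _ _ _ _ (by rw [map_neg, map_one])]

include hA in
theorem glMap_mem (τ : K →+* K) {g : GL chevG2.Idx K} (hg : g ∈ twistedG2 K (3 ^ m)) :
    glMap chevG2 τ g ∈ twistedG2 K (3 ^ m) := by
  rw [twistedG2_eq hA] at hg
  induction hg using Subgroup.closure_induction with
  | mem x hx =>
    rcases hx with ⟨t, u, v, rfl⟩ | ⟨t, u, v, rfl⟩
    · have := glMap_reeU (m := m) hA τ t u v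
      unfold reeU at this
      rw [this]
      exact reeU_mem hA m _ _ _
    · have := glMap_reeV (m := m) hA τ t u v
      unfold reeV at this
      rw [this]
      exact reeV_mem hA m _ _ _
  | one => rw [map_one]; exact one_mem _
  | mul x y _ _ hx hy => rw [map_mul]; exact mul_mem hx hy
  | inv x _ hx => rw [map_inv]; exact inv_mem hx

theorem glMap_reeH (τ : K →+* K) (y : K) : glMap chevG2 τ (reeH hA m y) = reeH hA m (τ y) := by
  unfold reeH
  rw [hh_eq_flat, glMap_W hA hA, hFlat_map, hh_eq_flat]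
  congr 2
  funext i
  split_ifs
  · exact reeTh_comm τ y
  · rfl

/-- the field automorphism of the Ree group induced by `τ`. -/
noncomputable def reeFieldAut (τ : K ≃+* K) : MulAut ↥(twistedG2 K (3 ^ m)) where
  toFun g := ⟨glMap chevG2 (τ : K →+* K) g, glMap_mem hA _ g.2⟩
  invFun g := ⟨glMap chevG2 (τ.symm : K →+* K) g, glMap_mem hA _ g.2⟩
  left_inv g := by
    apply Subtype.ext
    apply Units.ext
    ext i j
    simp [coe_glMap]
  right_inv g := by
    apply Subtype.ext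
    apply Units.ext
    ext i j
    simp [coe_glMap]
  map_mul' g h := by
    apply Subtype.ext
    simp

theorem reeFieldAut_val (τ : K ≃+* K) (g : ↥(twistedG2 K (3 ^ m))) :
    ((reeFieldAut hA τ g : ↥(twistedG2 K (3 ^ m))) : GL chevG2.Idx K) = glMap chevG2 (τ : K →+* K) g := rfl

theorem reeFieldAut_inv (τ : K ≃+* K) : (reeFieldAut (m := m) hA τ)⁻¹ = reeFieldAut hA τ.symm := by
  ext g
  rfl

end fieldaut

section card
variable {K : Type*} [Field K] [Fintype K] {m : ℕ} (hK : Fintype.card K = 3 ^ (2 * m + 1))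

include hK in
theorem card_ringAut_three : Nat.card (K ≃+* K) = 2 * m + 1 := by
  have := charP_of_card_pow Nat.prime_three hK
  have : Fact (Nat.Prime 3) := ⟨Nat.prime_three⟩
  let _ : Algebra (ZMod 3) K := ZMod.algebra K 3
  have e : (K ≃+* K) ≃ (K ≃ₐ[ZMod 3] K) :=
    { toFun := fun τ => AlgEquiv.ofRingEquiv (f := τ) (fun r => by
        have : ((τ : K →+* K).comp (algebraMap (ZMod 3) K)) = algebraMap (ZMod 3) K :=
          Subsingleton.elim _ _
        exact congrArg (fun f : ZMod 3 →+* K => f r) this)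
      invFun := fun τ => τ.toRingEquiv
      left_inv := fun τ => by ext; rfl
      right_inv := fun τ => by ext; rfl }
  rw [Nat.card_congr e, IsGalois.card_aut_eq_finrank]
  have h3 := Module.card_eq_pow_finrank (K := ZMod 3) (V := K)
  rw [hK, ZMod.card] at h3
  exact (Nat.pow_right_injective (le_refl 2 |>.trans (by norm_num)) h3).symm

end card

section sigma
variable {K : Type*} [Field K] [CharP K 3] [Fintype K] {m : ℕ} (hK : Fintype.card K = 3 ^ (2 * m + 1))
  (b : Bundle chevG2 K) (α : ↥(chevG2.group K) ≃* ↥(chevG2.group K))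
  (hα : ∀ r < 12, ∀ t : K,
    (α ⟨b.hA.X r t, b.hA.X_mem_group r t⟩ : GL chevG2.Idx K) = b.hA.X (isoRhoG2 r) (t ^ isoLamG2 r))

theorem reeData_Us (t₀ : K) (ht₀ : reePs K m t₀ ≠ t₀) : (reeData hK b α hα t₀ ht₀).Us = reeU1 K m := by
  ext g
  rw [mem_reeU1, ReeData.mem_Us]
  constructor
  · rintro ⟨t, u, v, rfl⟩
    exact reeU_mem_pos b.hA _ t u v
  · intro h
    obtain ⟨t, u, v, e⟩ := (mem_reeU1_iff hK b α hα _).1 ⟨h, g.2⟩
    exact ⟨t, u, v, Subtype.ext e⟩

include hK hα in
theorem card_Out_ree (hm : 1 ≤ m) : Nat.card (Cfsg.Out ↥(twistedG2 K (3 ^ m))) = 2 * m + 1 := by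
  obtain ⟨t₀, ht₀⟩ := exists_reePs_ne hK hm
  have hUs := reeData_Us hK b α hα t₀ ht₀
  rw [← card_ringAut_three hK]
  refine (reeData hK b α hα t₀ ht₀).card_Out (reeFieldAut b.hA) ?_ ?_ ?_ ?_ (reeFieldAut_inv b.hA)
  · intro τ t u v
    exact Subtype.ext (glMap_reeU b.hA (τ : K →+* K) t u v)
  · intro τ z
    have h1 := glMap_reeH (m := m) b.hA (τ : K →+* K) ((reeWt K m z : Kˣ) : K)
    obtain ⟨z', hz'⟩ := exists_reeHG hK b (y := (τ : K →+* K) ((reeWt K m z : Kˣ) : K))
      ((map_ne_zero _).2 (reeWt K m z).ne_zero)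
    exact ⟨z', Subtype.ext (h1.trans hz')⟩
  · rw [hUs]
    exact IsPGroup.of_card (card_reeU1' hK b α hα)
  · rw [hUs]
    exact reeU1_index hK b α hα

end sigma

end Cfsg.Agent.Lib.Helper8
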