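import Cfsg.Agent.Lib.Helper8.SzCent
import Cfsg.Agent.Lib.Helper8.SzAutAlg
import Cfsg.Agent.S0102

set_option autoImplicit false
set_option linter.unusedSectionVars false
open scoped commutatorElement

namespace Cfsg.Agent.Lib.Helper8

section FieldLemma

variable {F : Type*} [Field F] [CharP F 2] [Fintype F] {m : ℕ}
  (hF : Fintype.card F = 2 ^ (2 * m + 1))

include hF in
/-- the map `k ↦ (k θ(k))⁻¹` is not additive when `m ≥ 2`. -/
lemma exists_nonadd (hm : 2 ≤ m) :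
    ∃ k : F, k ≠ 0 ∧ k ≠ 1 ∧ ((1 + k) * th m (1 + k))⁻¹ + 1 + (k * th m k)⁻¹ ≠ 0 := by
  classical
  by_contra hcon
  push Not at hcon
  have hM : 2 ^ 2 ≤ 2 ^ m := Nat.pow_le_pow_right (by norm_num) hm
  have hq : 2 ^ (2 * m + 1) = 2 * (2 ^ m * 2 ^ m) := by ring
  have hr : 2 ^ (m + 1) = 2 * 2 ^ m := by ring
  obtain ⟨M, hMdef⟩ : ∃ M, M = 2 ^ m := ⟨_, rfl⟩
  rw [← hMdef] at hM hq hr
  have hMM : 4 * M ≤ M * M := Nat.mul_le_mul_right M (by simpa using hM)
  -- e = q - 2 - 2^(m+1) = 2 f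
  obtain ⟨f, hf⟩ : ∃ f, f + 1 + M = M * M := ⟨M * M - 1 - M, by omega⟩
  have hpow : ∀ k : F, k ≠ 0 → k ^ (2 * f) = (k * th m k)⁻¹ := by
    intro k hk
    apply eq_inv_of_mul_eq_one_left
    rw [th_apply, ← pow_succ', ← pow_add]
    have : 2 * f + (2 ^ (m + 1) + 1) = Fintype.card F - 1 := by rw [hF, hq, hr]; omega
    rw [this]
    exact FiniteField.pow_card_sub_one_eq_one k hk
  have h2 : (2 : F) = 0 := CharTwo.two_eq_zero
  have hf0 : 0 < f := by nlinarith
  have hall : ∀ k : F, (1 + k) ^ (2 * f) = 1 + k ^ (2 * f) := by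
    intro k
    by_cases hk0 : k = 0
    · subst hk0; simp [hf0.ne']
    by_cases hk1 : k = 1
    · subst hk1
      have : (1 + 1 : F) = 0 := by rw [one_add_one_eq_two, h2]
      rw [this, one_pow, this, zero_pow (by omega)]
    have hk1' : 1 + k ≠ 0 := by
      intro h
      apply hk1
      linear_combination h - h2
    have := hcon k hk0 hk1
    rw [hpow _ hk1', hpow _ hk0]
    linear_combination this - (1 + (k * th m k)⁻¹) * h2
  -- polynomial identity
  let p : Polynomial F := (Polynomial.X + 1) ^ (2 * f) - Polynomial.X ^ (2 * f) - 1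
  have hp0 : p = 0 := by
    apply Polynomial.eq_zero_of_natDegree_lt_card_of_eval_eq_zero' p Finset.univ
    · intro k _
      simp only [p, Polynomial.eval_sub, Polynomial.eval_pow, Polynomial.eval_add, Polynomial.eval_X,
        Polynomial.eval_one]
      rw [add_comm k 1, hall]; ring
    · rw [Finset.card_univ, hF, hq]
      have : p.natDegree ≤ 2 * f := by
        simp only [p]
        compute_degree
      omega
  have hc : p.coeff 2 = ((2 * f).choose 2 : F) := by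
    simp only [p, Polynomial.coeff_sub, Polynomial.coeff_X_add_one_pow, Polynomial.coeff_X_pow,
      Polynomial.coeff_one]
    have : (2 : ℕ) ≠ 2 * f := by
      intro h
      have : f = 1 := by omega
      subst this
      nlinarith
    simp [this]
  rw [hp0, Polynomial.coeff_zero] at hc
  have hdvd : 2 ∣ (2 * f).choose 2 := (CharP.cast_eq_zero_iff F 2 _).1 hc.symm
  rw [Nat.choose_two_right] at hdvd
  have h3 : 2 * f * (2 * f - 1) / 2 = f * (2 * f - 1) := by
    rw [mul_assoc, Nat.mul_div_cancel_left _ (by norm_num)]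
  rw [h3] at hdvd
  have hMeven : 2 ∣ M := by rw [hMdef]; exact dvd_pow_self 2 (by omega)
  have hfodd : ¬ 2 ∣ f := by
    obtain ⟨c, hc⟩ := hMeven
    intro ⟨d, hd⟩
    subst hc hd
    have : 2 * d + 1 + 2 * c = 2 * (c * (2 * c)) := by rw [hf]; ring
    omega
  rcases (Nat.Prime.dvd_mul Nat.prime_two).1 hdvd with h | h
  · exact hfodd h
  · omega


include hF in
/-- an invariant biadditive pairing `F × F → C` vanishes when `m ≥ 2`. -/
lemma pairing_trivial (hm : 2 ≤ m) {C : Type*} [Group C] (β : F → F → C)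
    (hl : ∀ x x' b, β (x + x') b = β x b * β x' b)
    (hr : ∀ x b b', β x (b + b') = β x b * β x b')
    (hinv : ∀ (k : Fˣ) x b, β (k * x) (k * th m (k : F) * b) = β x b) : ∀ x b, β x b = 1 := by
  have h0l : ∀ b, β 0 b = 1 := by
    intro b
    have := hl 0 0 b
    rw [add_zero] at this
    exact (right_eq_mul.1 this)
  have h0r : ∀ x, β x 0 = 1 := by
    intro x
    have := hr x 0 0
    rw [add_zero] at this
    exact (right_eq_mul.1 this)
  have hsq : ∀ x b, β x b * β x b = 1 := by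
    intro x b
    rw [← hr, CharTwo.add_self_eq_zero, h0r]
  have h1 : ∀ x b, x ≠ 0 → β x b = β 1 ((x * th m x)⁻¹ * b) := by
    intro x b hx
    have := hinv (Units.mk0 x hx)⁻¹ x b
    rw [← this]
    congr 1
    · simp [hx]
    · simp [mul_comm]
  obtain ⟨k, hk0, hk1, hE⟩ := exists_nonadd hF hm
  have h2 : (2 : F) = 0 := CharTwo.two_eq_zero
  have hk1' : 1 + k ≠ 0 := by
    intro h
    apply hk1
    linear_combination h - h2
  have key : ∀ b, β 1 ((((1 + k) * th m (1 + k))⁻¹ + 1 + (k * th m k)⁻¹) * b) = 1 := by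
    intro b
    have e1 := hl 1 k b
    rw [h1 (1 + k) b hk1', h1 k b hk0] at e1
    have : (((1 + k) * th m (1 + k))⁻¹ + 1 + (k * th m k)⁻¹) * b
        = ((1 + k) * th m (1 + k))⁻¹ * b + (b + (k * th m k)⁻¹ * b) := by ring
    rw [this, hr, hr, e1, ← hr, hsq]
  have h3 : ∀ y, β 1 y = 1 := by
    intro y
    have := key ((((1 + k) * th m (1 + k))⁻¹ + 1 + (k * th m k)⁻¹)⁻¹ * y)
    rwa [mul_inv_cancel_left₀ hE] at this
  intro x b
  by_cases hx : x = 0
  · rw [hx, h0l]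
  · rw [h1 x b hx, h3]

include hF in
/-- an invariant additive map `F → C` vanishes. -/
lemma additive_trivial (hm : 1 ≤ m) {C : Type*} [Group C] (η : F → C)
    (hadd : ∀ b b', η (b + b') = η b * η b')
    (hinv : ∀ (k : Fˣ) b, η (k * th m (k : F) * b) = η b) : ∀ b, η b = 1 := by
  have h0 : η 0 = 1 := by
    have := hadd 0 0
    rw [add_zero] at this
    exact (right_eq_mul.1 this)
  have h1 : ∀ b, b ≠ 0 → η b = η 1 := by
    intro b hb
    obtain ⟨l, hl⟩ := unit_th_surj hF (Units.mk0 b hb)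
    have := hinv l 1
    rw [hl, mul_one] at this
    exact this
  obtain ⟨k, hk⟩ := exists_unit_ne_one hF hm
  have h2 : (2 : F) = 0 := CharTwo.two_eq_zero
  have hk1' : 1 + (k : F) ≠ 0 := by
    intro h
    apply hk
    apply Units.ext
    rw [Units.val_one]
    linear_combination h - h2
  have := hadd 1 k
  rw [h1 _ hk1', h1 _ k.ne_zero] at this
  have hc : η 1 = 1 := right_eq_mul.1 this
  intro b
  by_cases hb : b = 0
  · rw [hb, h0]
  · rw [h1 b hb, hc]

include hF in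
lemma exists_two_elts (hm : 1 ≤ m) : ∃ k k' : F, k ≠ 0 ∧ k ≠ 1 ∧ k' ≠ 0 ∧ k' ≠ 1 ∧ k + k' ≠ 0 ∧
    k + k' ≠ 1 := by
  classical
  have hcard : 8 ≤ Fintype.card F := by
    rw [hF]
    calc 8 = 2 ^ 3 := by norm_num
      _ ≤ 2 ^ (2 * m + 1) := Nat.pow_le_pow_right (by norm_num) (by omega)
  have h2 : (2 : F) = 0 := CharTwo.two_eq_zero
  obtain ⟨k, hk⟩ : ∃ k : F, k ∉ ({0, 1} : Finset F) := by
    by_contra hcon
    push Not at hcon
    have : Fintype.card F ≤ ({0, 1} : Finset F).card :=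
      Finset.card_le_card (fun x _ => hcon x)
    have h4 := Finset.card_le_two (a := (0 : F)) (b := 1)
    omega
  obtain ⟨k', hk'⟩ : ∃ k' : F, k' ∉ ({0, 1, k, k + 1} : Finset F) := by
    by_contra hcon
    push Not at hcon
    have : Fintype.card F ≤ ({0, 1, k, k + 1} : Finset F).card :=
      Finset.card_le_card (fun x _ => hcon x)
    have h4 := Finset.card_le_four (a := (0 : F)) (b := 1) (c := k) (d := k + 1)
    omega
  simp only [Finset.mem_insert, Finset.mem_singleton, not_or] at hk hk'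
  refine ⟨k, k', hk.1, hk.2, hk'.1, hk'.2.1, ?_, ?_⟩
  · intro h
    apply hk'.2.2.1
    linear_combination h - k * h2
  · intro h
    apply hk'.2.2.2
    linear_combination h - k * h2

include hF in
/-- an invariant "quadratic map" has trivial polarisation. -/
lemma quad_trivial (hm : 1 ≤ m) {C : Type*} [Group C] (κ : F → C) (γ : F → F → C)
    (hκ : ∀ x x', κ (x + x') = γ x x' * κ x * κ x')
    (hγ : ∀ x x' x'', γ x (x' + x'') = γ x x' * γ x x'')
    (hinv : ∀ (k : Fˣ) x, κ (k * x) = κ x) : ∀ x x', γ x x' = 1 := by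
  have hγ0 : ∀ x, γ x 0 = 1 := by
    intro x
    have := hγ x 0 0
    rw [add_zero] at this
    exact (right_eq_mul.1 this)
  have hκ0 : κ 0 = 1 := by
    have := hκ 0 0
    rw [add_zero, hγ0, one_mul] at this
    exact (right_eq_mul.1 this)
  have h1 : ∀ x, x ≠ 0 → κ x = κ 1 := by
    intro x hx
    have := hinv (Units.mk0 x hx) 1
    rwa [mul_one] at this
  have h2 : ∀ x x', x ≠ 0 → x' ≠ 0 → x + x' ≠ 0 → γ x x' = (κ 1)⁻¹ := by
    intro x x' hx hx' hxx
    have := hκ x x'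
    rw [h1 _ hx, h1 _ hx', h1 _ hxx, mul_assoc] at this
    rw [eq_inv_iff_mul_eq_one]
    have h3 : γ x x' * κ 1 * κ 1 = 1 * κ 1 := by rw [one_mul, mul_assoc]; exact this.symm
    exact mul_right_cancel h3
  obtain ⟨k, k', hk0, hk1, hk0', hk1', hs0, hs1⟩ := exists_two_elts hF hm
  have h2' : (2 : F) = 0 := CharTwo.two_eq_zero
  have hne : ∀ y : F, y ≠ 1 → 1 + y ≠ 0 := by
    intro y hy h
    apply hy
    linear_combination h - h2'
  have hc : κ 1 = 1 := by
    have := hγ 1 k k'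
    rw [h2 1 _ one_ne_zero hs0 (hne _ hs1), h2 1 _ one_ne_zero hk0 (hne _ hk1),
      h2 1 _ one_ne_zero hk0' (hne _ hk1')] at this
    have := right_eq_mul.1 this
    rwa [inv_eq_one] at this
  intro x x'
  by_cases hx' : x' = 0
  · rw [hx', hγ0]
  by_cases hx : x = 0
  · have := hκ 0 x'
    rw [zero_add, hκ0, mul_one] at this
    rw [hx]
    exact (right_eq_mul.1 this)
  by_cases hxx : x + x' = 0
  · have := hκ x x'
    rw [hxx, hκ0, h1 _ hx, h1 _ hx', hc, mul_one, mul_one] at this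
    exact this.symm
  · rw [h2 x x' hx hx' hxx, hc, inv_one]

end FieldLemma

section GroupLemmas

variable {Γ : Type*} [Group Γ]

lemma comm_mul_left' {g g' h : Γ} (hc : g * ⁅g', h⁆ = ⁅g', h⁆ * g) :
    ⁅g * g', h⁆ = ⁅g', h⁆ * ⁅g, h⁆ := by
  have : ⁅g * g', h⁆ = g * ⁅g', h⁆ * g⁻¹ * ⁅g, h⁆ := by
    simp only [commutatorElement_def]; group
  rw [this, hc, mul_inv_cancel_right]

lemma comm_mul_right' {g h h' : Γ} (hc : h * ⁅g, h'⁆ = ⁅g, h'⁆ * h) :
    ⁅g, h * h'⁆ = ⁅g, h⁆ * ⁅g, h'⁆ := by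
  have : ⁅g, h * h'⁆ = ⁅g, h⁆ * (h * ⁅g, h'⁆ * h⁻¹) := by
    simp only [commutatorElement_def]; group
  rw [this, hc, mul_inv_cancel_right]

lemma comm_absorb_left {g z h : Γ} (hz : z * h = h * z) : ⁅g * z, h⁆ = ⁅g, h⁆ := by
  simp only [commutatorElement_def, mul_inv_rev]
  have : g * z * h = g * h * z := by rw [mul_assoc, hz, ← mul_assoc]
  rw [this]; group

lemma comm_absorb_right {g z h : Γ} (hz : z * g = g * z) : ⁅g, h * z⁆ = ⁅g, h⁆ := by
  simp only [commutatorElement_def, mul_inv_rev]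
  have : z * g⁻¹ = g⁻¹ * z := by
    rw [eq_inv_mul_iff_mul_eq, ← mul_assoc, ← hz, mul_inv_cancel_right]
  have h2 : g * (h * z) * g⁻¹ = g * h * g⁻¹ * z := by
    rw [mul_assoc, mul_assoc, this]; group
  rw [h2]; group

lemma conj_comm (e g h : Γ) : e * ⁅g, h⁆ * e⁻¹ = ⁅e * g * e⁻¹, e * h * e⁻¹⁆ := by
  simp only [commutatorElement_def]; group

lemma rearr3 {c1 c2 c3 j1 j2 j3 : Γ} (h2 : ∀ g, c2 * g = g * c2) (h3 : ∀ g, c3 * g = g * c3) :
    (c1 * j3) * (c2 * j1) * (c3 * j2) = c1 * c2 * c3 * (j3 * j1 * j2) := by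
  calc c1 * j3 * (c2 * j1) * (c3 * j2) = c1 * (j3 * c2) * (j1 * c3) * j2 := by group
    _ = c1 * (c2 * j3) * (c3 * j1) * j2 := by rw [h2, h3]
    _ = c1 * c2 * (j3 * c3) * j1 * j2 := by group
    _ = c1 * c2 * (c3 * j3) * j1 * j2 := by rw [h3]
    _ = _ := by group

lemma rearr2 {c1 c2 j1 j2 : Γ} (h1 : ∀ g, c1 * g = g * c1) (h2 : ∀ g, c2 * g = g * c2) :
    (c2 * j2) * (c1 * j1) = c1 * c2 * (j2 * j1) := by
  calc c2 * j2 * (c1 * j1) = c2 * (j2 * c1) * j1 := by group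
    _ = c2 * (c1 * j2) * j1 := by rw [h1]
    _ = (c2 * c1) * j2 * j1 := by group
    _ = (c1 * c2) * j2 * j1 := by rw [h2]
    _ = _ := by group

lemma sq_mul_of_comm {g g' : Γ} (hc : g * ⁅g', g⁆ = ⁅g', g⁆ * g) :
    g * g' * (g * g') = ⁅g', g⁆ * (g * g) * (g' * g') := by
  have h1 : g' * g = ⁅g', g⁆ * g * g' := by simp only [commutatorElement_def]; group
  calc g * g' * (g * g') = g * (g' * g) * g' := by group
    _ = (g * ⁅g', g⁆) * g * g' * g' := by rw [h1]; group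
    _ = _ := by rw [hc]; group

end GroupLemmas

section Cover

variable {F : Type*} [Field F] [CharP F 2] [Fintype F] {m : ℕ}
  (hF : Fintype.card F = 2 ^ (2 * m + 1))
variable {Γ : Type*} [Group Γ]

/-- a central extension of the Suzuki group with kernel `{1, a}`. -/
structure Cov (σ : Γ →* Cfsg.Sz F m) (a : Γ) : Prop where
  surj : Function.Surjective σ
  ker : ∀ g, σ g = 1 → g = 1 ∨ g = a
  a_ker : σ a = 1
  a_comm : ∀ g, a * g = g * a
  a_sq : a * a = 1

variable {σ : Γ →* Cfsg.Sz F m} {a : Γ} (H : Cov σ a)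

include H

lemma Cov.central {c : Γ} (hc : σ c = 1) (g : Γ) : c * g = g * c := by
  rcases H.ker c hc with rfl | rfl
  · simp
  · exact H.a_comm g

lemma Cov.sq_one {c : Γ} (hc : σ c = 1) : c * c = 1 := by
  rcases H.ker c hc with rfl | rfl
  · simp
  · exact H.a_sq

lemma Cov.exists_eq {g g' : Γ} (h : σ g = σ g') : ∃ c, σ c = 1 ∧ g' = g * c :=
  ⟨g⁻¹ * g', by rw [map_mul, map_inv, h, inv_mul_cancel], by group⟩

lemma Cov.comm_congr {g g' h h' : Γ} (h1 : σ g = σ g') (h2 : σ h = σ h') : ⁅g, h⁆ = ⁅g', h'⁆ := by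
  obtain ⟨c, hc, rfl⟩ := H.exists_eq h1
  obtain ⟨c', hc', rfl⟩ := H.exists_eq h2
  rw [comm_absorb_left (H.central hc _), comm_absorb_right (H.central hc' _)]

lemma Cov.sq_congr {g g' : Γ} (h : σ g = σ g') : g * g = g' * g' := by
  obtain ⟨c, hc, rfl⟩ := H.exists_eq h
  have : g * c * (g * c) = g * g * (c * c) := by
    rw [mul_assoc, ← mul_assoc c, H.central hc g]; group
  rw [this, H.sq_one hc, mul_one]

/-- a set-theoretic section -/
noncomputable def Cov.lf (x : Cfsg.Sz F m) : Γ := Function.surjInv H.surj x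

lemma Cov.σ_lf (x : Cfsg.Sz F m) : σ (H.lf x) = x := Function.surjInv_eq H.surj x

lemma Cov.conj_central {c : Γ} (hc : σ c = 1) (e : Γ) : e * c * e⁻¹ = c := by
  rw [← H.central hc e, mul_inv_cancel_right]

omit H in
lemma σ_conj_dG {e g : Γ} {k : Fˣ} {x y : F} (he : σ e = dG hF k) (hg : σ g = tG hF x y) :
    σ (e * g * e⁻¹) = tG hF (k * x) (k * th m (k : F) * y) := by
  rw [map_mul, map_mul, map_inv, he, hg, dG_tG, mul_inv_cancel_right]

lemma Cov.σ_comm_Z {g h : Γ} {x y b : F} (hg : σ g = tG hF x y) (hh : σ h = tG hF 0 b) :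
    σ ⁅g, h⁆ = 1 := by
  rw [map_commutatorElement, hg, hh, tG_comm]
  simp [tG_zero]

lemma Cov.zz_comm {z h : Γ} {b' b : F} (hz : σ z = tG hF 0 b') (hh : σ h = tG hF 0 b) :
    ⁅z, h⁆ = 1 := by
  obtain ⟨x, hx⟩ := th_mul_surj hF b'
  have hg : σ (H.lf (tG hF x 0)) = tG hF x 0 := H.σ_lf _
  have h1 : σ (H.lf (tG hF x 0) * H.lf (tG hF x 0)) = σ z := by
    rw [map_mul, hg, tG_sq, hz, mul_comm, hx]
  rw [← H.comm_congr h1 rfl, comm_mul_left' (H.central (H.σ_comm_Z hF hg hh) _).symm,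
    H.sq_one (H.σ_comm_Z hF hg hh)]

/-- the pairing `Q/Z × Z → ker` -/
noncomputable def Cov.bet (x b : F) : Γ := ⁅H.lf (tG hF x 0), H.lf (tG hF 0 b)⁆

lemma Cov.bet_eq {g h : Γ} {x y b : F} (hg : σ g = tG hF x y) (hh : σ h = tG hF 0 b) :
    ⁅g, h⁆ = H.bet hF x b := by
  have h1 : σ g = σ (H.lf (tG hF x 0) * H.lf (tG hF 0 y)) := by
    rw [map_mul, H.σ_lf, H.σ_lf, tG_mul, hg]
    congr 1 <;> simp
  have h2 : σ h = σ (H.lf (tG hF 0 b)) := by rw [H.σ_lf, hh]
  rw [H.comm_congr h1 h2, comm_absorb_left]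
  · rfl
  · exact commutatorElement_eq_one_iff_mul_comm.1 (H.zz_comm hF (H.σ_lf _) (H.σ_lf _))

lemma Cov.bet_trivial (hm : 2 ≤ m) (x b : F) : H.bet hF x b = 1 := by
  apply pairing_trivial hF hm (H.bet hF)
  · intro x x' b
    have hg : σ (H.lf (tG hF x 0)) = tG hF x 0 := H.σ_lf _
    have hg' : σ (H.lf (tG hF x' 0)) = tG hF x' 0 := H.σ_lf _
    have hh : σ (H.lf (tG hF 0 b)) = tG hF 0 b := H.σ_lf _
    have h1 : σ (H.lf (tG hF x 0) * H.lf (tG hF x' 0)) = tG hF (x + x') (0 + 0 + th m x * x') := by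
      rw [map_mul, hg, hg', tG_mul]
    rw [← H.bet_eq hF h1 hh, comm_mul_left' (H.central (H.σ_comm_Z hF hg' hh) _).symm,
      H.central (H.σ_comm_Z hF hg' hh)]
    rfl
  · intro x b b'
    have hg : σ (H.lf (tG hF x 0)) = tG hF x 0 := H.σ_lf _
    have hh : σ (H.lf (tG hF 0 b)) = tG hF 0 b := H.σ_lf _
    have hh' : σ (H.lf (tG hF 0 b')) = tG hF 0 b' := H.σ_lf _
    have h1 : σ (H.lf (tG hF 0 b) * H.lf (tG hF 0 b')) = tG hF 0 (b + b') := by
      rw [map_mul, hh, hh', tG_mul]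
      congr 1 <;> simp
    rw [← H.bet_eq hF hg h1, comm_mul_right' (H.central (H.σ_comm_Z hF hg hh') _).symm]
    rfl
  · intro k x b
    have hg : σ (H.lf (tG hF x 0)) = tG hF x 0 := H.σ_lf _
    have hh : σ (H.lf (tG hF 0 b)) = tG hF 0 b := H.σ_lf _
    have he : σ (H.lf (dG hF k)) = dG hF k := H.σ_lf _
    have h1 := σ_conj_dG hF he hg
    have h2 := σ_conj_dG hF he hh
    rw [mul_zero] at h2
    rw [← H.bet_eq hF h1 h2, ← conj_comm, H.conj_central (H.σ_comm_Z hF hg hh)]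
    rfl

lemma Cov.central_Z (hm : 2 ≤ m) {g h : Γ} {x y b : F} (hg : σ g = tG hF x y)
    (hh : σ h = tG hF 0 b) : g * h = h * g :=
  commutatorElement_eq_one_iff_mul_comm.1 (by rw [H.bet_eq hF hg hh, H.bet_trivial hF hm])


lemma Cov.Zsq (hm : 2 ≤ m) {h : Γ} {b : F} (hh : σ h = tG hF 0 b) : h * h = 1 := by
  have key : ∀ b, H.lf (tG hF 0 b) * H.lf (tG hF 0 b) = 1 := by
    apply additive_trivial hF (by omega : 1 ≤ m) (fun b => H.lf (tG hF 0 b) * H.lf (tG hF 0 b))
    · intro b b'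
      have hh : σ (H.lf (tG hF 0 b)) = tG hF 0 b := H.σ_lf _
      have hh' : σ (H.lf (tG hF 0 b')) = tG hF 0 b' := H.σ_lf _
      have h1 : σ (H.lf (tG hF 0 (b + b'))) = σ (H.lf (tG hF 0 b) * H.lf (tG hF 0 b')) := by
        rw [map_mul, hh, hh', tG_mul, H.σ_lf]
        congr 1 <;> simp
      show H.lf (tG hF 0 (b + b')) * H.lf (tG hF 0 (b + b')) = _
      rw [H.sq_congr h1]
      have := H.central_Z hF hm hh hh'
      calc H.lf (tG hF 0 b) * H.lf (tG hF 0 b') * (H.lf (tG hF 0 b) * H.lf (tG hF 0 b'))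
          = H.lf (tG hF 0 b) * (H.lf (tG hF 0 b') * H.lf (tG hF 0 b)) * H.lf (tG hF 0 b') := by group
        _ = _ := by rw [← this]; group
    · intro k b
      have hh : σ (H.lf (tG hF 0 b)) = tG hF 0 b := H.σ_lf _
      have he : σ (H.lf (dG hF k)) = dG hF k := H.σ_lf _
      have h2 := σ_conj_dG hF he hh
      rw [mul_zero] at h2
      have h3 : σ (H.lf (tG hF 0 (k * th m (k : F) * b))) =
          σ (H.lf (dG hF k) * H.lf (tG hF 0 b) * (H.lf (dG hF k))⁻¹) := by rw [h2, H.σ_lf]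
      show H.lf (tG hF 0 (k * th m (k : F) * b)) * H.lf (tG hF 0 (k * th m (k : F) * b)) = _
      rw [H.sq_congr h3]
      have h4 : σ (H.lf (tG hF 0 b) * H.lf (tG hF 0 b)) = 1 := by
        rw [map_mul, hh, tG_sq]; simp [tG_zero]
      calc _ = H.lf (dG hF k) * (H.lf (tG hF 0 b) * H.lf (tG hF 0 b)) * (H.lf (dG hF k))⁻¹ := by group
        _ = _ := H.conj_central h4 _
  have h1 : σ h = σ (H.lf (tG hF 0 b)) := by rw [hh, H.σ_lf]
  rw [H.sq_congr h1, key]

/-- an invariant homomorphic section over the centre of `Q`. -/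
lemma Cov.exists_section (hm : 2 ≤ m) : ∃ J : F → Γ, (∀ b, σ (J b) = tG hF 0 b) ∧
    (∀ b b', J (b + b') = J b * J b') ∧
    (∀ (e : Γ) (k : Fˣ) (b : F), σ e = dG hF k → e * J b * e⁻¹ = J (k * th m (k : F) * b)) := by
  obtain ⟨k₀, hk₀⟩ := exists_unit_ne_one hF (by omega : 1 ≤ m)
  have hne := unit_th_ne_one hF hk₀
  have h2 : (2 : F) = 0 := CharTwo.two_eq_zero
  have hl : (k₀ : F) * th m (k₀ : F) + 1 ≠ 0 := by
    intro h
    apply hne
    linear_combination h - h2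
  have he₀ : σ (H.lf (dG hF k₀)) = dG hF k₀ := H.σ_lf _
  have hj : ∀ {h : Γ} {b : F}, σ h = tG hF 0 b →
      σ ⁅H.lf (dG hF k₀), h⁆ = tG hF 0 (((k₀ : F) * th m (k₀ : F) + 1) * b) := by
    intro h b hh
    have h2 := σ_conj_dG hF he₀ hh
    rw [commutatorElement_def, map_mul, h2, map_inv, hh, tG_inv, tG_mul]
    congr 1
    · simp
    · simp; ring
  refine ⟨fun b => ⁅H.lf (dG hF k₀), H.lf (tG hF 0 (((k₀ : F) * th m (k₀ : F) + 1)⁻¹ * b))⁆,
    ?_, ?_, ?_⟩
  · intro b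
    rw [hj (H.σ_lf _), mul_inv_cancel_left₀ hl]
  · intro b b'
    have hh := H.σ_lf (tG hF 0 (((k₀ : F) * th m (k₀ : F) + 1)⁻¹ * b))
    have hh' := H.σ_lf (tG hF 0 (((k₀ : F) * th m (k₀ : F) + 1)⁻¹ * b'))
    have h1 : σ (H.lf (tG hF 0 (((k₀ : F) * th m (k₀ : F) + 1)⁻¹ * (b + b')))) =
        σ (H.lf (tG hF 0 (((k₀ : F) * th m (k₀ : F) + 1)⁻¹ * b)) *
          H.lf (tG hF 0 (((k₀ : F) * th m (k₀ : F) + 1)⁻¹ * b'))) := by
      rw [map_mul, hh, hh', tG_mul, H.σ_lf]
      congr 1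
      · simp
      · simp; ring
    show ⁅H.lf (dG hF k₀), H.lf (tG hF 0 (((k₀ : F) * th m (k₀ : F) + 1)⁻¹ * (b + b')))⁆ = _
    rw [H.comm_congr rfl h1, comm_mul_right' (H.central_Z hF hm hh (hj hh'))]
  · intro e k b he
    have hh := H.σ_lf (tG hF 0 (((k₀ : F) * th m (k₀ : F) + 1)⁻¹ * b))
    show e * ⁅H.lf (dG hF k₀), H.lf (tG hF 0 (((k₀ : F) * th m (k₀ : F) + 1)⁻¹ * b))⁆ * e⁻¹ = _
    rw [conj_comm]
    apply H.comm_congr
    · rw [map_mul, map_mul, map_inv, he, he₀, ← dG_mul, mul_comm, dG_mul, mul_inv_cancel_right]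
    · have h2 := σ_conj_dG hF he hh
      rw [h2, H.σ_lf]
      congr 1
      · simp
      · ring

lemma Cov.sq_eq (hm : 2 ≤ m) {g : Γ} {x y : F} (hg : σ g = tG hF x y) :
    g * g = H.lf (tG hF x 0) * H.lf (tG hF x 0) := by
  have h1 : σ g = σ (H.lf (tG hF x 0) * H.lf (tG hF 0 y)) := by
    rw [map_mul, H.σ_lf, H.σ_lf, tG_mul, hg]
    congr 1 <;> simp
  rw [H.sq_congr h1]
  have h2 := H.central_Z hF hm (H.σ_lf (tG hF x 0)) (H.σ_lf (tG hF 0 y))
  calc H.lf (tG hF x 0) * H.lf (tG hF 0 y) * (H.lf (tG hF x 0) * H.lf (tG hF 0 y))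
      = H.lf (tG hF x 0) * (H.lf (tG hF 0 y) * H.lf (tG hF x 0)) * H.lf (tG hF 0 y) := by group
    _ = H.lf (tG hF x 0) * H.lf (tG hF x 0) * (H.lf (tG hF 0 y) * H.lf (tG hF 0 y)) := by
        rw [← h2]; group
    _ = _ := by rw [H.Zsq hF hm (H.σ_lf (tG hF 0 y)), mul_one]

lemma Cov.comm_eq (hm : 2 ≤ m) {u v : Γ} {x y x' y' : F} (hu : σ u = tG hF x y)
    (hv : σ v = tG hF x' y') : ⁅u, v⁆ = ⁅H.lf (tG hF x 0), H.lf (tG hF x' 0)⁆ := by
  have h1 : σ u = σ (H.lf (tG hF x 0) * H.lf (tG hF 0 y)) := by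
    rw [map_mul, H.σ_lf, H.σ_lf, tG_mul, hu]
    congr 1 <;> simp
  have h2 : σ v = σ (H.lf (tG hF x' 0) * H.lf (tG hF 0 y')) := by
    rw [map_mul, H.σ_lf, H.σ_lf, tG_mul, hv]
    congr 1 <;> simp
  rw [H.comm_congr h1 h2, comm_absorb_left, comm_absorb_right]
  · exact (H.central_Z hF hm (H.σ_lf _) (H.σ_lf _)).symm
  · refine (H.central_Z hF hm (x := x') (y := y') ?_ (H.σ_lf _)).symm
    rw [← h2, hv]


/-- all commutators of the preimage of `Q` lie in the image of an additive section. -/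
lemma Cov.comm_section (hm : 2 ≤ m) : ∃ J : F → Γ, (∀ b, σ (J b) = tG hF 0 b) ∧
    (∀ b b', J (b + b') = J b * J b') ∧
    (∀ {u v : Γ} {x y x' y' : F}, σ u = tG hF x y → σ v = tG hF x' y' →
      ⁅u, v⁆ = J (th m x * x' + th m x' * x)) := by
  obtain ⟨J, hJσ, hJadd, hJinv⟩ := H.exists_section hF hm
  refine ⟨J, hJσ, hJadd, ?_⟩
  have hG : ∀ x, σ (H.lf (tG hF x 0)) = tG hF x 0 := fun x => H.σ_lf _
  have hcσ : ∀ x x', σ ⁅H.lf (tG hF x' 0), H.lf (tG hF x 0)⁆ = tG hF 0 (th m x' * x + th m x * x') := by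
    intro x x'
    rw [map_commutatorElement, hG, hG, tG_comm]
  let κ : F → Γ := fun x => H.lf (tG hF x 0) * H.lf (tG hF x 0) * (J (x * th m x))⁻¹
  let γ : F → F → Γ := fun x x' => ⁅H.lf (tG hF x' 0), H.lf (tG hF x 0)⁆ *
    (J (th m x' * x + th m x * x'))⁻¹
  have hκσ : ∀ x, σ (κ x) = 1 := by
    intro x
    simp only [κ]
    rw [map_mul, map_mul, map_inv, hG, tG_sq, hJσ, mul_inv_cancel]
  have hγσ : ∀ x x', σ (γ x x') = 1 := by
    intro x x'
    simp only [γ]
    rw [map_mul, map_inv, hcσ, hJσ, mul_inv_cancel]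
  have hκe : ∀ x, H.lf (tG hF x 0) * H.lf (tG hF x 0) = κ x * J (x * th m x) := by
    intro x; simp only [κ]; rw [inv_mul_cancel_right]
  have hγe : ∀ x x', ⁅H.lf (tG hF x' 0), H.lf (tG hF x 0)⁆ =
      γ x x' * J (th m x' * x + th m x * x') := by
    intro x x'; simp only [γ]; rw [inv_mul_cancel_right]
  have key : ∀ x x', γ x x' = 1 := by
    apply quad_trivial hF (by omega : 1 ≤ m) κ γ
    · intro x x'
      have h1 : σ (H.lf (tG hF x 0) * H.lf (tG hF x' 0)) = tG hF (x + x') (0 + 0 + th m x * x') := by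
        rw [map_mul, hG, hG, tG_mul]
      have h2 : H.lf (tG hF (x + x') 0) * H.lf (tG hF (x + x') 0) =
          γ x x' * κ x * κ x' * J ((x + x') * th m (x + x')) := by
        rw [← H.sq_eq hF hm h1, sq_mul_of_comm (H.central_Z hF hm (hG x) (hcσ x x')),
          hκe, hκe, hγe, rearr3 (H.central (hκσ x)) (H.central (hκσ x')), ← hJadd, ← hJadd]
        congr 2
        rw [map_add]; ring
      show H.lf (tG hF (x + x') 0) * H.lf (tG hF (x + x') 0) * (J ((x + x') * th m (x + x')))⁻¹ = _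
      rw [h2, mul_inv_cancel_right]
    · intro x x' x''
      have h1 : σ (H.lf (tG hF x' 0) * H.lf (tG hF x'' 0)) =
          tG hF (x' + x'') (0 + 0 + th m x' * x'') := by
        rw [map_mul, hG, hG, tG_mul]
      have h2 : ⁅H.lf (tG hF (x' + x'') 0), H.lf (tG hF x 0)⁆ =
          γ x x' * γ x x'' * J (th m (x' + x'') * x + th m x * (x' + x'')) := by
        rw [← H.comm_eq hF hm h1 (hG x), comm_mul_left' (H.central_Z hF hm (hG x') (hcσ x x'')),
          hγe, hγe, rearr2 (H.central (hγσ x x')) (H.central (hγσ x x'')), ← hJadd]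
        congr 2
        rw [map_add]; ring
      show ⁅H.lf (tG hF (x' + x'') 0), H.lf (tG hF x 0)⁆ *
        (J (th m (x' + x'') * x + th m x * (x' + x'')))⁻¹ = _
      rw [h2, mul_inv_cancel_right]
    · intro k x
      have he : σ (H.lf (dG hF k)) = dG hF k := H.σ_lf _
      have h1 := σ_conj_dG hF he (hG x)
      have h2 : J ((k : F) * x * th m ((k : F) * x)) =
          H.lf (dG hF k) * J (x * th m x) * (H.lf (dG hF k))⁻¹ := by
        rw [hJinv _ k _ he]
        congr 1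
        rw [map_mul]; ring
      show H.lf (tG hF (k * x) 0) * H.lf (tG hF (k * x) 0) * (J ((k : F) * x * th m ((k : F) * x)))⁻¹
        = _
      rw [← H.sq_eq hF hm h1, h2]
      calc _ = H.lf (dG hF k) * κ x * (H.lf (dG hF k))⁻¹ := by simp only [κ]; group
        _ = _ := H.conj_central (hκσ x) _
  intro u v x y x' y' hu hv
  rw [H.comm_eq hF hm hu hv, hγe, key, one_mul]

/-- the central involution is not a product of commutators in the preimage of `Q`. -/
lemma Cov.not_mem_commutator_P (hm : 2 ≤ m) (ha : a ≠ 1) (haP : a ∈ (QG hF).comap σ) :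
    (⟨a, haP⟩ : (QG hF).comap σ) ∉ commutator ((QG hF).comap σ) := by
  obtain ⟨J, hJσ, hJadd, hJc⟩ := H.comm_section hF hm
  have hJ0 : J 0 = 1 := by
    have := hJadd 0 0
    rw [add_zero] at this
    exact right_eq_mul.1 this
  let Z₀ : Subgroup Γ :=
    { carrier := Set.range J
      mul_mem' := by
        rintro _ _ ⟨b, rfl⟩ ⟨b', rfl⟩
        exact ⟨b + b', hJadd b b'⟩
      one_mem' := ⟨0, hJ0⟩
      inv_mem' := by
        rintro _ ⟨b, rfl⟩
        refine ⟨b, ?_⟩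
        rw [eq_inv_iff_mul_eq_one, ← hJadd, CharTwo.add_self_eq_zero, hJ0] }
  have hle : commutator ((QG hF).comap σ) ≤ Z₀.subgroupOf ((QG hF).comap σ) := by
    rw [commutator_def, Subgroup.commutator_le]
    rintro ⟨u, hu⟩ _ ⟨v, hv⟩ _
    obtain ⟨x, y, hu'⟩ := hu
    obtain ⟨x', y', hv'⟩ := hv
    rw [Subgroup.mem_subgroupOf]
    exact ⟨_, (hJc hu' hv').symm⟩
  intro hmem
  obtain ⟨b, hb⟩ := hle hmem
  have hb' : J b = a := hb
  have h1 := hJσ b
  rw [hb', H.a_ker, ← tG_zero hF] at h1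
  have := (tG_injective hF h1).2
  rw [← this, hJ0] at hb'
  exact ha hb'.symm

end Cover

section Transfer

variable {Γ : Type*} [Group Γ]

/-- transfer: a central involution lying outside `P'` for a subgroup `P` of odd index lies outside
`Γ'`. -/
lemma not_mem_commutator_of_transfer (P : Subgroup Γ) [P.FiniteIndex] (hodd : ¬ 2 ∣ P.index)
    {a : Γ} (haP : a ∈ P) (hc : ∀ g, a * g = g * a) (ha2 : a * a = 1)
    (hnot : (⟨a, haP⟩ : P) ∉ commutator P) : a ∉ commutator Γ := by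
  intro hmem
  have h1 : MonoidHom.transfer (Abelianization.of : P →* Abelianization P) a = 1 :=
    Abelianization.commutator_subset_ker _ hmem
  have key : ∀ (k : ℕ) (g₀ : Γ), g₀⁻¹ * a ^ k * g₀ ∈ P → g₀⁻¹ * a ^ k * g₀ = a ^ k := by
    intro k g₀ _
    have : a ^ k * g₀ = g₀ * a ^ k := by
      have : Commute a g₀ := hc g₀
      exact (this.pow_left k)
    rw [mul_assoc, this, inv_mul_cancel_left]
  rw [MonoidHom.transfer_eq_pow _ a key] at h1
  have hpow : a ^ P.index = a := by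
    obtain ⟨c, hc⟩ : Odd P.index := Nat.odd_iff.2 (by omega)
    rw [hc, pow_succ, pow_mul, pow_two, ha2, one_pow, one_mul]
  apply hnot
  rw [← Abelianization.ker_of, MonoidHom.mem_ker, ← h1]
  congr 1
  exact Subtype.ext hpow.symm

end Transfer

section Main

variable {F : Type*} [Field F] [CharP F 2] [Fintype F] {m : ℕ}
  (hF : Fintype.card F = 2 ^ (2 * m + 1))
variable {Γ : Type*} [Group Γ]

include hF in
theorem Cov.not_mem_commutator [Finite Γ] {σ : Γ →* Cfsg.Sz F m} {a : Γ} (H : Cov σ a)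
    (hm : 2 ≤ m) (ha : a ≠ 1) : a ∉ commutator Γ := by
  have haP : a ∈ (QG hF).comap σ := by
    rw [Subgroup.mem_comap, H.a_ker]; exact one_mem _
  apply not_mem_commutator_of_transfer ((QG hF).comap σ) _ haP H.a_comm H.a_sq
    (H.not_mem_commutator_P hF hm ha haP)
  rw [Subgroup.index_comap_of_surjective _ H.surj]
  exact QG_index_odd hF (by omega)

include hF in
/-- every finite stem extension of `Sz(q)`, `q ≥ 32`, is trivial. -/
theorem Sz_stem_trivial [Finite Γ] (hm : 2 ≤ m) (σ : Γ →* Cfsg.Sz F m)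
    (hσ : Function.Surjective σ) (hz : σ.ker ≤ Subgroup.center Γ) (hs : σ.ker ≤ commutator Γ) :
    σ.ker = ⊥ := by
  have hm1 : 1 ≤ m := by omega
  -- Γ is perfect
  have hperf : commutator Γ = ⊤ := by
    rw [eq_top_iff]
    intro g _
    have h1 : σ g ∈ (commutator Γ).map σ := by
      have : (commutator Γ).map σ = ⊤ := by
        rw [commutator_def, Subgroup.map_commutator, ← MonoidHom.range_eq_map,
          MonoidHom.range_eq_top.2 hσ, ← commutator_def, Sz_perfect hF hm1]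
      rw [this]; trivial
    obtain ⟨g', hg', hgg⟩ := h1
    have h2 : g'⁻¹ * g ∈ σ.ker := by
      rw [MonoidHom.mem_ker, map_mul, map_inv, hgg, inv_mul_cancel]
    have := mul_mem hg' (hs h2)
    rwa [mul_inv_cancel_left] at this
  -- the kernel is a 2-group
  have hodd : ∀ p : ℕ, p.Prime → p ∣ Nat.card σ.ker → p = 2 := by
    intro p hp hdvd
    by_contra hp2
    have : Fact p.Prime := ⟨hp⟩
    exact Cfsg.Agent.S0102.result (Sz_perfect hF hm1)
      (fun P => Sz_sylow_odd_cyclic hF hm1 hp2 P) σ hσ hz hperf hdvd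
  by_contra hne
  have hcard : Nat.card σ.ker = 2 ^ (Nat.card σ.ker).primeFactorsList.length :=
    Nat.eq_prime_pow_of_unique_prime_dvd Nat.card_pos.ne' (fun {d} hd hdd => hodd d hd hdd)
  obtain ⟨n, hn⟩ : ∃ n, Nat.card σ.ker = 2 ^ n := ⟨_, hcard⟩
  have hn0 : n ≠ 0 := by
    rintro rfl
    apply hne
    rw [pow_zero] at hn
    exact (Subgroup.card_eq_one).1 hn
  obtain ⟨n', rfl⟩ : ∃ n', n = n' + 1 := ⟨n - 1, by omega⟩
  have : Fact (Nat.Prime 2) := ⟨Nat.prime_two⟩
  obtain ⟨K, hK⟩ := Sylow.exists_subgroup_card_pow_prime (G := σ.ker) 2 (n := n')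
    (by rw [hn]; exact pow_dvd_pow 2 (by omega))
  have hKi : K.index = 2 := by
    have := K.card_mul_index
    rw [hK, hn, pow_succ] at this
    exact Nat.eq_of_mul_eq_mul_left (by positivity) this
  obtain ⟨a₀, ha₀⟩ : ∃ a₀ : σ.ker, a₀ ∉ K := by
    by_contra hcon
    push Not at hcon
    have : K = ⊤ := eq_top_iff.2 (fun x _ => hcon x)
    rw [this, Subgroup.index_top] at hKi
    omega
  have hle : K.map σ.ker.subtype ≤ σ.ker := by
    rintro _ ⟨y, _, rfl⟩
    exact y.2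
  have hmemA : ∀ y : σ.ker, (y : Γ) ∈ K.map σ.ker.subtype ↔ y ∈ K := by
    intro y
    constructor
    · rintro ⟨y', hy', hyy⟩
      have : y' = y := Subtype.ext hyy
      rwa [← this]
    · intro hy
      exact ⟨y, hy, rfl⟩
  have hN : (K.map σ.ker.subtype).Normal := by
    refine ⟨fun n hn g => ?_⟩
    have := Subgroup.mem_center_iff.1 (hz (hle hn)) g
    rw [this, mul_inv_cancel_right]
    exact hn
  let σ' : Γ ⧸ (K.map σ.ker.subtype) →* Cfsg.Sz F m :=
    QuotientGroup.lift (K.map σ.ker.subtype) σ (fun x hx => hle hx)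
  have hσ' : ∀ g : Γ, σ' (QuotientGroup.mk g) = σ g := fun g => rfl
  have H : Cov σ' (QuotientGroup.mk (a₀ : Γ)) := by
    refine ⟨?_, ?_, ?_, ?_, ?_⟩
    · intro y
      obtain ⟨g, rfl⟩ := hσ y
      exact ⟨QuotientGroup.mk g, rfl⟩
    · intro g
      induction g using QuotientGroup.induction_on with
      | H g =>
        intro hg
        rw [hσ'] at hg
        by_cases hx : (⟨g, hg⟩ : σ.ker) ∈ K
        · left
          exact (QuotientGroup.eq_one_iff g).2 ((hmemA ⟨g, hg⟩).2 hx)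
        · right
          rw [QuotientGroup.eq]
          have h1 : (⟨g, hg⟩ : σ.ker)⁻¹ * a₀ ∈ K := by
            rw [Subgroup.mul_mem_iff_of_index_two hKi, inv_mem_iff]
            exact iff_of_false hx ha₀
          exact (hmemA _).2 h1
    · exact a₀.2
    · intro g
      induction g using QuotientGroup.induction_on with
      | H g =>
        rw [← QuotientGroup.mk_mul, ← QuotientGroup.mk_mul,
          Subgroup.mem_center_iff.1 (hz a₀.2) g]
    · rw [← QuotientGroup.mk_mul]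
      have h1 : a₀ * a₀ ∈ K := by
        rw [Subgroup.mul_mem_iff_of_index_two hKi]
      exact (QuotientGroup.eq_one_iff _).2 ((hmemA _).2 h1)
  have hne1 : (QuotientGroup.mk (a₀ : Γ) : Γ ⧸ (K.map σ.ker.subtype)) ≠ 1 := by
    intro h
    exact ha₀ ((hmemA _).1 ((QuotientGroup.eq_one_iff _).1 h))
  apply H.not_mem_commutator hF hm hne1
  have h1 : (QuotientGroup.mk' (K.map σ.ker.subtype)) (a₀ : Γ) ∈
      (commutator Γ).map (QuotientGroup.mk' (K.map σ.ker.subtype)) :=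
    Subgroup.mem_map_of_mem _ (hs a₀.2)
  rw [commutator_def, Subgroup.map_commutator] at h1
  exact Subgroup.commutator_mono le_top le_top h1

end Main
end Cfsg.Agent.Lib.Helper8
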